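import Cfsg.Agent.Lib.GolayStructure.TernaryAut
import Cfsg.Agent.Lib.OutMathieu.Outer
import Cfsg.Agent.Lib.OutMathieu.CertM12

/-!
The double cover of `M12` from the monomial automorphisms of the ternary code.
-/

set_option autoImplicit false
set_option maxRecDepth 100000

namespace CfsgLib.OutMathieu.Cover

open Cfsg CfsgLib.Golay CfsgLib.GolayStructure.Ternary
open scoped commutatorElement

/-- The twelve points of the dodecad, labelled by the array. -/
def label (p : ArrayPt) : GolayPt := CfsgLib.Golay.pt (([0, 1, 2, 3, 4, 12, 13, 8, 9, 18, 6, 16] : List ℕ).getD (num p) 0)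

/-- The generators of `M12` with monomial lifts: table, permutation, inverse, signs. -/
def liftData : List (ℕ × List ℕ × List ℕ × ℕ) :=
  [(983435072843990828779021698901151808, [0, 2, 4, 10, 7, 1, 3, 11, 9, 6, 5, 8], [0, 5, 1, 6, 2, 10, 9, 4, 11, 8, 3, 7], 828),
   (974380510768821363662145534143076928, [0, 9, 10, 3, 2, 7, 8, 11, 5, 4, 1, 6], [0, 10, 4, 3, 9, 8, 11, 5, 6, 1, 2, 7], 294),
   (651245563028962197159478659450418563, [3, 5, 6, 0, 11, 1, 2, 9, 10, 7, 8, 4], [3, 5, 6, 0, 11, 1, 2, 9, 10, 7, 8, 4], 2476)]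

/-- Two commuting elements whose lifts anticommute. -/
def pairX : ℕ × List ℕ × List ℕ × ℕ := (430370510348236426377172159770539596, [5, 9, 6, 4, 3, 0, 2, 8, 7, 1, 11, 10], [5, 9, 6, 4, 3, 0, 2, 8, 7, 1, 11, 10], 1768)

/-- The second element. -/
def pairY : ℕ × List ℕ × List ℕ × ℕ := (317529576833142594988395433926329414, [10, 2, 1, 7, 8, 11, 9, 3, 4, 6, 0, 5], [10, 2, 1, 7, 8, 11, 9, 3, 4, 6, 0, 5], 3732)

/-- Checks on a lift. -/
def LiftOK (d : ℕ × List ℕ × List ℕ × ℕ) : Prop :=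
  inM24 d.1 = true ∧ imgMask d.1 dodMask = dodMask ∧
    (∀ k, monomialMap (mkPerm d.2.1 d.2.2.1) (sgn d.2.2.2) (row k) ∈ ternaryGolayCode) ∧
    ∀ p, tblAt d.1 (idx (label p)) = idx (label (mkPerm d.2.1 d.2.2.1 p))

theorem lifts_ok : (∀ d ∈ liftData, LiftOK d) ∧ LiftOK pairX ∧ LiftOK pairY := by
  unfold LiftOK
  decide +kernel

theorem label_injective : Function.Injective label := by
  intro p q h
  revert h
  revert p q
  decide +kernel

/-- Pairs of an element and a permutation of the code induced by a compatible monomial map. -/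
def Rel (x : Cfsg.Spor.M12 × Equiv.Perm ↥ternaryGolayCode) : Prop :=
  ∃ σ c, Pres σ c ∧ (∀ p, (x.1 : Equiv.Perm GolayPt) (label p) = label (σ p)) ∧
    ∀ w : ↥ternaryGolayCode, ((x.2 w : ↥ternaryGolayCode) : ArrayPt → ZMod 3) = monomialMap σ c w

theorem rel_one : Rel 1 :=
  ⟨1, fun _ => 1, fun x hx => by
    rw [show monomialMap (1 : Equiv.Perm ArrayPt) (fun _ => (1 : (ZMod 3)ˣ)) x = x from
      funext fun i => by simp [monomialMap, Equiv.Perm.one_def]]
    exact hx, fun p => rfl, fun w => funext fun i => by simp [monomialMap, Equiv.Perm.one_def]⟩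

theorem rel_mul {x y : Cfsg.Spor.M12 × Equiv.Perm ↥ternaryGolayCode} (hx : Rel x) (hy : Rel y) :
    Rel (x * y) := by
  obtain ⟨σ, c, h1, h2, h3⟩ := hx
  obtain ⟨τ, d, k1, k2, k3⟩ := hy
  refine ⟨σ * τ, fun i => c i * d (σ.symm i), pres_mul h1 k1, fun p => ?_, fun w => ?_⟩
  · rw [Prod.fst_mul, Subgroup.coe_mul, Equiv.Perm.mul_apply, k2, h2]
    rfl
  · rw [Prod.snd_mul, Equiv.Perm.mul_apply, h3, k3, monomialMap_comp]

/-- The double cover. -/
def cover : Subgroup (Cfsg.Spor.M12 × Equiv.Perm ↥ternaryGolayCode) where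
  carrier := {x | Rel x}
  one_mem' := rel_one
  mul_mem' := rel_mul
  inv_mem' := by
    intro x hx
    have hp : ∀ n : ℕ, Rel (x ^ n) := fun n => by
      induction n with
      | zero => rw [pow_zero]; exact rel_one
      | succ n ih => rw [pow_succ]; exact rel_mul ih hx
    have : x⁻¹ = x ^ (orderOf x - 1) := by
      apply inv_eq_of_mul_eq_one_right
      rw [← pow_succ', Nat.sub_add_cancel (orderOf_pos x), pow_orderOf_eq_one]
    show Rel x⁻¹
    rw [this]
    exact hp _

/-- The covering map. -/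
def proj : cover →* Cfsg.Spor.M12 := (MonoidHom.fst _ _).comp cover.subtype

theorem exists_lift {d : ℕ × List ℕ × List ℕ × ℕ} (hd : LiftOK d) :
    ∃ x : cover, IsTbl ((proj x : Cfsg.Spor.M12) : Equiv.Perm GolayPt) d.1 ∧
      ∀ w, (((x : Cfsg.Spor.M12 × Equiv.Perm ↥ternaryGolayCode).2 w : ↥ternaryGolayCode) :
        ArrayPt → ZMod 3) = monomialMap (mkPerm d.2.1 d.2.2.1) (sgn d.2.2.2) w := by
  obtain ⟨h1, h2, h3, h4⟩ := hd
  obtain ⟨g, hg⟩ := exists_isTbl (t := d.1) (by
    simp only [inM24, Bool.and_eq_true] at h1; exact h1.1)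
  have hgK : g ∈ Cfsg.Spor.M12 := by
    rw [M12_eq_stabK]
    exact mem_stabK_of_isTbl hg h1 fun n hn => by
      rw [List.mem_singleton] at hn; subst hn; exact h2
  have hp : Pres (mkPerm d.2.1 d.2.2.1) (sgn d.2.2.2) := pres_of_rows h3
  let π : ↥ternaryGolayCode → ↥ternaryGolayCode := fun w => ⟨_, hp w w.2⟩
  have hπ : Function.Bijective π := by
    refine Finite.injective_iff_bijective.1 fun a b hab => Subtype.ext (funext fun p => ?_)
    have := congrFun (congrArg Subtype.val hab) (mkPerm d.2.1 d.2.2.1 p)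
    simpa [π, monomialMap] using this
  exact ⟨⟨(⟨g, hgK⟩, Equiv.ofBijective π hπ), _, _, hp,
    fun p => idx_injective ((hg _).trans (h4 p)), fun w => rfl⟩, hg, fun w => rfl⟩

theorem ker_iff {x : cover} : x ∈ proj.ker →
    ∃ u : (ZMod 3)ˣ, ∀ w, (((x : Cfsg.Spor.M12 × Equiv.Perm ↥ternaryGolayCode).2 w :
      ↥ternaryGolayCode) : ArrayPt → ZMod 3) = fun p => (u : ZMod 3) * (w : ArrayPt → ZMod 3) p := by
  intro hx
  obtain ⟨σ, c, h1, h2, h3⟩ := x.2
  have hσ : σ = 1 := Equiv.ext fun p => label_injective (by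
    rw [← h2 p, show (x : Cfsg.Spor.M12 × Equiv.Perm ↥ternaryGolayCode).1 = 1 from hx]
    rfl)
  subst hσ
  rcases Cfsg.Agent.S1593.result c h1 with h | h
  · exact ⟨1, fun w => by rw [h3]; funext p; simp [monomialMap, Equiv.Perm.one_def, h p]⟩
  · exact ⟨-1, fun w => by rw [h3]; funext p; simp [monomialMap, Equiv.Perm.one_def, h p]⟩

theorem proj_surjective : Function.Surjective proj := by
  rw [← MonoidHom.range_eq_top]
  obtain ⟨a, b, gx, ha, hb, hgx, -⟩ := Cert.data certM12_valid M12_eq_stabK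
  refine Cert.generates certM12_valid M12_eq_stabK (gs := a :: b :: gx)
    (List.Forall₂.cons ha (List.Forall₂.cons hb hgx)) fun g hg => ?_
  obtain ⟨i, hi, rfl⟩ := List.getElem_of_mem hg
  have hgs : List.Forall₂ (fun (g : Cfsg.Spor.M12) t => IsTbl (g : Equiv.Perm GolayPt) t)
      (a :: b :: gx) certM12.gens := List.Forall₂.cons ha (List.Forall₂.cons hb hgx)
  have hi' : i < certM12.gens.length := hgs.length_eq ▸ hi
  obtain ⟨d, hd, he⟩ : ∃ d ∈ liftData, d.1 = certM12.gens[i] := by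
    have : ∀ t ∈ certM12.gens, ∃ d ∈ liftData, d.1 = t := by decide +kernel
    exact this _ (List.getElem_mem hi')
  obtain ⟨x, hx, -⟩ := exists_lift (lifts_ok.1 d hd)
  refine ⟨x, Subtype.ext (hx.ext ?_)⟩
  rw [he]
  exact hgs.get hi hi'

/-- The central element. -/
def negPerm : Equiv.Perm ↥ternaryGolayCode := Equiv.neg _

theorem negPerm_rel : Rel (1, negPerm) :=
  ⟨1, fun _ => -1, fun x hx => by
    rw [show monomialMap (1 : Equiv.Perm ArrayPt) (fun _ => (-1 : (ZMod 3)ˣ)) x = -x from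
      funext fun i => by simp [monomialMap, Equiv.Perm.one_def]]
    exact Submodule.neg_mem _ hx, fun p => rfl,
    fun w => funext fun i => by simp [negPerm, monomialMap, Equiv.Perm.one_def]⟩

/-- The central involution of the cover. -/
def negOne : cover := ⟨(1, negPerm), negPerm_rel⟩

theorem eq_of_coe {x y : cover} (h1 : proj x = proj y)
    (h2 : ∀ w, (((x : Cfsg.Spor.M12 × Equiv.Perm ↥ternaryGolayCode).2 w : ↥ternaryGolayCode) :
        ArrayPt → ZMod 3) =
      (((y : Cfsg.Spor.M12 × Equiv.Perm ↥ternaryGolayCode).2 w : ↥ternaryGolayCode) :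
        ArrayPt → ZMod 3)) : x = y :=
  Subtype.ext (Prod.ext h1 (Equiv.ext fun w => Subtype.ext (h2 w)))

theorem negOne_mem_ker : negOne ∈ proj.ker := rfl

theorem negOne_ne_one : negOne ≠ 1 := by
  intro h
  have hw : (((negOne : Cfsg.Spor.M12 × Equiv.Perm ↥ternaryGolayCode).2 ⟨row 0, row_mem 0⟩ :
      ↥ternaryGolayCode) : ArrayPt → ZMod 3) = row 0 := by rw [h]; rfl
  have : ¬ ∀ p, -(row 0 p) = row 0 p := by decide +kernel
  exact this fun p => congrFun hw p

theorem negOne_sq : negOne * negOne = 1 :=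
  eq_of_coe rfl fun w => funext fun p => neg_neg _

theorem ker_eq : proj.ker = Subgroup.zpowers negOne := by
  refine le_antisymm (fun x hx => ?_) (Subgroup.zpowers_le.2 negOne_mem_ker)
  obtain ⟨u, hu⟩ := ker_iff hx
  have hu' : ∀ u : (ZMod 3)ˣ, u = 1 ∨ u = -1 := by decide
  rcases hu' u with rfl | rfl
  · rw [show x = 1 from eq_of_coe hx fun w => (hu w).trans (funext fun p => by simp)]
    exact one_mem _
  · rw [show x = negOne from eq_of_coe hx fun w => (hu w).trans (funext fun p => by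
      simp [negOne, negPerm])]
    exact Subgroup.mem_zpowers _

theorem ker_le_center : proj.ker ≤ Subgroup.center cover := by
  rw [ker_eq, Subgroup.zpowers_le, Subgroup.mem_center_iff]
  intro x
  refine eq_of_coe (by rw [map_mul, map_mul, show proj negOne = 1 from rfl, mul_one, one_mul])
    fun w => ?_
  obtain ⟨σ, c, h1, h2, h3⟩ := x.2
  funext p
  show (((x : Cfsg.Spor.M12 × Equiv.Perm ↥ternaryGolayCode).2 (-w) : ↥ternaryGolayCode) :
    ArrayPt → ZMod 3) p = ((-((x : Cfsg.Spor.M12 × Equiv.Perm ↥ternaryGolayCode).2 w) :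
    ↥ternaryGolayCode) : ArrayPt → ZMod 3) p
  rw [Submodule.coe_neg, h3, Pi.neg_apply, h3]
  simp [monomialMap]

theorem pair_check : compTbl pairX.1 pairY.1 = compTbl pairY.1 pairX.1 ∧
    (mkPerm pairX.2.1 pairX.2.2.1 * mkPerm pairY.2.1 pairY.2.2.1 =
      mkPerm pairY.2.1 pairY.2.2.1 * mkPerm pairX.2.1 pairX.2.2.1) ∧
    ∀ p, sgn pairX.2.2.2 p * sgn pairY.2.2.2 ((mkPerm pairX.2.1 pairX.2.2.1).symm p) =
      -(sgn pairY.2.2.2 p * sgn pairX.2.2.2 ((mkPerm pairY.2.1 pairY.2.2.1).symm p)) := by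
  decide +kernel

theorem negOne_mem_commutator : negOne ∈ commutator cover := by
  obtain ⟨X, hX, hX'⟩ := exists_lift lifts_ok.2.1
  obtain ⟨Y, hY, hY'⟩ := exists_lift lifts_ok.2.2
  obtain ⟨e1, e2, e3⟩ := pair_check
  have : X * Y = negOne * (Y * X) := by
    refine eq_of_coe ?_ fun w => ?_
    · rw [map_mul, map_mul, show proj negOne = 1 from rfl, one_mul, map_mul]
      exact Subtype.ext ((e1 ▸ isTbl_compTbl hX hY).ext (isTbl_compTbl hY hX))
    · have hl : (((X : Cfsg.Spor.M12 × Equiv.Perm ↥ternaryGolayCode).2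
          ((Y : Cfsg.Spor.M12 × Equiv.Perm ↥ternaryGolayCode).2 w) : ↥ternaryGolayCode) :
          ArrayPt → ZMod 3) = -(((Y : Cfsg.Spor.M12 × Equiv.Perm ↥ternaryGolayCode).2
          ((X : Cfsg.Spor.M12 × Equiv.Perm ↥ternaryGolayCode).2 w) : ↥ternaryGolayCode) :
          ArrayPt → ZMod 3) := by
        rw [hX', hY', hY', hX', ← monomialMap_comp, ← monomialMap_comp, e2]
        funext p
        simp [monomialMap, e3 p]
      exact hl
  have hc : negOne = ⁅X, Y⁆ := by
    rw [commutatorElement_def, this]; group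
  rw [hc, commutator_def]
  exact Subgroup.commutator_mem_commutator (Subgroup.mem_top _) (Subgroup.mem_top _)

theorem isStem : Cfsg.IsStemExtension proj :=
  ⟨proj_surjective, ker_le_center, by
    rw [ker_eq, Subgroup.zpowers_le]; exact negOne_mem_commutator⟩

theorem card_ker : Nat.card proj.ker = 2 := by
  rw [ker_eq, Nat.card_zpowers]
  exact orderOf_eq_prime (by rw [pow_two, negOne_sq]) negOne_ne_one

end CfsgLib.OutMathieu.Cover
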