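import Cfsg.Agent.Lib.OutMathieu.MultSmall
import Cfsg.Agent.Lib.Golay.M24

/-! The `3`-parts of the multipliers of `M11`, `M23` and `M24`, and the `2`-part for `M11`. -/

set_option autoImplicit false
set_option maxRecDepth 100000

namespace CfsgLib.OutMathieu

open Cfsg CfsgLib.Golay CfsgLib.SchurMult
open scoped Pointwise

theorem not_three_dvd_M11 {K : Subgroup (Equiv.Perm GolayPt)} (hK : K = stabK [1, dodMask])
    {Γ : Type} [Group Γ] [Finite Γ] {σ : Γ →* K} (hσ : Cfsg.IsStemExtension σ) :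
    ¬ 3 ∣ Nat.card σ.ker := by
  obtain ⟨gs, hgs⟩ := exists_elts [1, dodMask] hK [230677849259001266017366822915187200, 818651513951218415503646874652651616, 316393473068614230779262073191841856] (by decide +kernel)
  rcases hgs with _ | ⟨hx, _ | ⟨hy, _ | ⟨hg, ⟨⟩⟩⟩⟩
  rename_i x y g
  have h3 : List.Forall₂ (fun (g : K) t => IsTbl (g : Equiv.Perm GolayPt) t) [x, y, g]
      [230677849259001266017366822915187200, 818651513951218415503646874652651616, 316393473068614230779262073191841856] := .cons hx (.cons hy (.cons hg .nil))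
  have hcard := card_closure_pair hx hy (words := [[], [0], [1], [0, 0], [0, 1], [1, 1], [0, 0, 1], [0, 1, 1], [0, 0, 1, 1]]) (by decide +kernel)
  refine not_three_dvd_of_nine hσ (x := x) (y := y) (g := g) (a := 0) (b := 1) (c := 1) (d := 1)
    (show x * y = y * x by
    simpa [evalGroup, pow_succ, mul_assoc] using
      eq_of_word h3 (w := [0, 1]) (w' := [1, 0]) (by decide +kernel))
    (show x ^ 3 = 1 by
    simpa [evalGroup, pow_succ, mul_assoc] using
      eq_of_word h3 (w := [0, 0, 0]) (w' := []) (by decide +kernel))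
    (by rw [mul_inv_eq_iff_eq_mul]; exact (show g * x = x ^ 0 * y ^ 1 * g by
    simpa [evalGroup, pow_succ, mul_assoc] using
      eq_of_word h3 (w := [2, 0]) (w' := [1, 2]) (by decide +kernel)))
    (by rw [mul_inv_eq_iff_eq_mul]; exact (show g * y = x ^ 1 * y ^ 1 * g by
    simpa [evalGroup, pow_succ, mul_assoc] using
      eq_of_word h3 (w := [2, 1]) (w' := [0, 1, 2]) (by decide +kernel)))
    (by norm_num) ?_
  rw [index_eq_of_card (k := 880) hcard (hK ▸ card_stabK_dodecad_point) (by rfl)]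
  norm_num

theorem not_three_dvd_M23 {K : Subgroup (Equiv.Perm GolayPt)} (hK : K = stabK [8388608])
    {Γ : Type} [Group Γ] [Finite Γ] {σ : Γ →* K} (hσ : Cfsg.IsStemExtension σ) :
    ¬ 3 ∣ Nat.card σ.ker := by
  obtain ⟨gs, hgs⟩ := exists_elts [8388608] hK [976855956277210333073186944228854464, 980709431793734461380880429192677824, 974214457365492663957942309444255778] (by decide +kernel)
  rcases hgs with _ | ⟨hx, _ | ⟨hy, _ | ⟨hg, ⟨⟩⟩⟩⟩
  rename_i x y g
  have h3 : List.Forall₂ (fun (g : K) t => IsTbl (g : Equiv.Perm GolayPt) t) [x, y, g]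
      [976855956277210333073186944228854464, 980709431793734461380880429192677824, 974214457365492663957942309444255778] := .cons hx (.cons hy (.cons hg .nil))
  have hcard := card_closure_pair hx hy (words := [[], [0], [1], [0, 0], [0, 1], [1, 1], [0, 0, 1], [0, 1, 1], [0, 0, 1, 1]]) (by decide +kernel)
  refine not_three_dvd_of_nine hσ (x := x) (y := y) (g := g) (a := 0) (b := 1) (c := 1) (d := 2)
    (show x * y = y * x by
    simpa [evalGroup, pow_succ, mul_assoc] using
      eq_of_word h3 (w := [0, 1]) (w' := [1, 0]) (by decide +kernel))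
    (show x ^ 3 = 1 by
    simpa [evalGroup, pow_succ, mul_assoc] using
      eq_of_word h3 (w := [0, 0, 0]) (w' := []) (by decide +kernel))
    (by rw [mul_inv_eq_iff_eq_mul]; exact (show g * x = x ^ 0 * y ^ 1 * g by
    simpa [evalGroup, pow_succ, mul_assoc] using
      eq_of_word h3 (w := [2, 0]) (w' := [1, 2]) (by decide +kernel)))
    (by rw [mul_inv_eq_iff_eq_mul]; exact (show g * y = x ^ 1 * y ^ 2 * g by
    simpa [evalGroup, pow_succ, mul_assoc] using
      eq_of_word h3 (w := [2, 1]) (w' := [0, 1, 1, 2]) (by decide +kernel)))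
    (by norm_num) ?_
  rw [index_eq_of_card (k := 1133440) hcard (hK ▸ card_stabK_point) (by rfl)]
  norm_num

theorem not_three_dvd_M24 {Γ : Type} [Group Γ] [Finite Γ] {σ : Γ →* Cfsg.M24}
    (hσ : Cfsg.IsStemExtension σ) : ¬ 3 ∣ Nat.card σ.ker := by
  obtain ⟨gs, hgs⟩ := exists_elts (K := Cfsg.M24) [] stabK_nil.symm [351358130543459129633928529317007415, 977953942446698697982883299950397952, 980762818693868436314578849374999584, 929775334617586449410675808619011118, 361418023793791036929162559963104320] (by decide +kernel)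
  rcases hgs with _ | ⟨hx, _ | ⟨hy, _ | ⟨hz, _ | ⟨hg, _ | ⟨hh, ⟨⟩⟩⟩⟩⟩⟩
  rename_i x y z g h
  have h5 : List.Forall₂ (fun (g : Cfsg.M24) t => IsTbl (g : Equiv.Perm GolayPt) t) [x, y, z, g, h]
      [351358130543459129633928529317007415, 977953942446698697982883299950397952, 980762818693868436314578849374999584, 929775334617586449410675808619011118, 361418023793791036929162559963104320] := .cons hx (.cons hy (.cons hz (.cons hg (.cons hh .nil))))
  have hcard := card_closure_pair hx hy (words := [[], [0], [1], [0, 0], [0, 1], [1, 0], [1, 1], [0, 0, 1], [0, 1, 0], [0, 1, 1], [1, 0, 0], [1, 0, 1], [1, 1, 0], [0, 0, 1, 0], [0, 0, 1, 1], [0, 1, 0, 0], [0, 1, 0, 1], [0, 1, 1, 0], [1, 0, 1, 1], [1, 1, 0, 1], [0, 0, 1, 0, 0], [0, 0, 1, 0, 1], [0, 0, 1, 1, 0], [0, 1, 0, 1, 1], [0, 1, 1, 0, 1], [0, 0, 1, 0, 1, 1], [0, 0, 1, 1, 0, 1]]) (by decide +kernel)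
  refine not_three_dvd_of_extraspecial hσ (x := x) (y := y) (z := z) (g := g) (h := h)
    (a := 0) (b := 1) (c := 1) (d := 1) (a' := 0) (b' := 1) (c' := 1) (d' := 0)
    (by
      rw [mul_inv_eq_iff_eq_mul, mul_inv_eq_iff_eq_mul]
      exact (show x * y = z * y * x by
    simpa [evalGroup, pow_succ, mul_assoc] using
      eq_of_word h5 (w := [0, 1]) (w' := [2, 1, 0]) (by decide +kernel)))
    (show x ^ 3 = 1 by
    simpa [evalGroup, pow_succ, mul_assoc] using
      eq_of_word h5 (w := [0, 0, 0]) (w' := []) (by decide +kernel))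
    (show y ^ 3 = 1 by
    simpa [evalGroup, pow_succ, mul_assoc] using
      eq_of_word h5 (w := [1, 1, 1]) (w' := []) (by decide +kernel))
    (by simpa [evalGroup] using ne_of_word h5 (w := [2]) (w' := []) (by decide +kernel))
    (show x * z = z * x by
    simpa [evalGroup, pow_succ, mul_assoc] using
      eq_of_word h5 (w := [0, 2]) (w' := [2, 0]) (by decide +kernel))
    (show y * z = z * y by
    simpa [evalGroup, pow_succ, mul_assoc] using
      eq_of_word h5 (w := [1, 2]) (w' := [2, 1]) (by decide +kernel))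
    (by rw [mul_inv_eq_iff_eq_mul]; exact (show g * x = x ^ 0 * z ^ 1 * g by
    simpa [evalGroup, pow_succ, mul_assoc] using
      eq_of_word h5 (w := [3, 0]) (w' := [2, 3]) (by decide +kernel)))
    (by rw [mul_inv_eq_iff_eq_mul]; exact (show g * z = x ^ 1 * z ^ 1 * g by
    simpa [evalGroup, pow_succ, mul_assoc] using
      eq_of_word h5 (w := [3, 2]) (w' := [0, 2, 3]) (by decide +kernel)))
    (by norm_num)
    (by rw [mul_inv_eq_iff_eq_mul]; exact (show h * y = y ^ 0 * z ^ 1 * h by
    simpa [evalGroup, pow_succ, mul_assoc] using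
      eq_of_word h5 (w := [4, 1]) (w' := [2, 4]) (by decide +kernel)))
    (by rw [mul_inv_eq_iff_eq_mul]; exact (show h * z = y ^ 1 * z ^ 0 * h by
    simpa [evalGroup, pow_succ, mul_assoc] using
      eq_of_word h5 (w := [4, 2]) (w' := [1, 4]) (by decide +kernel)))
    (by norm_num) ?_
  rw [index_eq_of_card (k := 9067520) hcard natCard_M24 (by rfl)]
  norm_num

theorem not_two_dvd_M11 {K : Subgroup (Equiv.Perm GolayPt)} (hK : K = stabK [1, dodMask])
    {Γ : Type} [Group Γ] [Finite Γ] {σ : Γ →* K} (hσ : Cfsg.IsStemExtension σ) :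
    ¬ 2 ∣ Nat.card σ.ker := by
  obtain ⟨gs, hgs⟩ := exists_elts [1, dodMask] hK [902393100344336927159561307829768448, 485099761271087225674448474470648064] (by decide +kernel)
  rcases hgs with _ | ⟨hx, _ | ⟨hy, ⟨⟩⟩⟩
  rename_i x y
  have h2 : List.Forall₂ (fun (g : K) t => IsTbl (g : Equiv.Perm GolayPt) t) [x, y]
      [902393100344336927159561307829768448, 485099761271087225674448474470648064] := .cons hx (.cons hy .nil)
  have hcard := card_closure_pair hx hy (words := [[], [0], [1], [0, 0], [0, 1], [1, 0], [0, 0, 0], [0, 0, 1], [0, 1, 0], [1, 0, 0], [0, 0, 0, 0], [0, 0, 1, 0], [0, 1, 0, 0], [1, 0, 0, 1], [0, 0, 0, 0, 0], [0, 1, 0, 0, 1]]) (by decide +kernel)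
  have hindex : ¬ 2 ∣ (Subgroup.closure {x, y}).index := by
    rw [index_eq_of_card (k := 495) hcard (hK ▸ card_stabK_dodecad_point) (by rfl)]
    norm_num
  have hba : y * x * y⁻¹ = x ^ (3 : ℤ) := by
    rw [mul_inv_eq_iff_eq_mul, show (3 : ℤ) = ((3 : ℕ) : ℤ) from rfl, zpow_natCast]
    exact (show y * x = x ^ 3 * y by
    simpa [evalGroup, pow_succ, mul_assoc] using
      eq_of_word h2 (w := [1, 0]) (w' := [0, 0, 0, 1]) (by decide +kernel))
  have hbb : y ^ 2 = 1 := (show y ^ 2 = 1 by
    simpa [evalGroup, pow_succ, mul_assoc] using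
      eq_of_word h2 (w := [1, 1]) (w' := []) (by decide +kernel))
  have h8 : x ^ 8 = 1 := (show x ^ 8 = 1 by
    simpa [evalGroup, pow_succ, mul_assoc] using
      eq_of_word h2 (w := [0, 0, 0, 0, 0, 0, 0, 0]) (w' := []) (by decide +kernel))
  have h4 : x ^ 4 ≠ 1 := by
    simpa [evalGroup, pow_succ, mul_assoc] using
      ne_of_word h2 (w := [0, 0, 0, 0]) (w' := []) (by decide +kernel)
  have hord : orderOf x = 8 :=
    orderOf_eq_prime_pow (p := 2) (n := 2) (by simpa using h4) (by simpa using h8)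
  obtain ⟨a, rfl⟩ := hσ.1 x
  obtain ⟨b, rfl⟩ := hσ.1 y
  refine not_dvd_card_ker_of_local hσ Nat.prime_two _ hindex fun u hu huk => ?_
  refine metacyclic_two_tight hσ.2.1 (a := a) (b := b) (r := 3) (t := 0) (N := 8) (e := 4)
    (by rw [map_mul, map_mul, map_inv]; exact hba) (by rw [hbb, zpow_zero]) ?_
    ⟨0, 1, 0, by norm_num⟩ ?_ hu huk
  · rw [show (8 : ℤ) = ((8 : ℕ) : ℤ) from rfl, zpow_natCast, h8]
  · intro j hj
    rw [← orderOf_dvd_iff_zpow_eq_one, hord] at hj
    omega

end CfsgLib.OutMathieu
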