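import Cfsg.Agent.Lib.OutMathieu.MultSmall
import Cfsg.Agent.Lib.Golay.M24

/-! The `3`-part of the multiplier of `M12`. -/

set_option autoImplicit false
set_option maxRecDepth 100000

namespace CfsgLib.OutMathieu

open Cfsg CfsgLib.Golay CfsgLib.SchurMult
open scoped Pointwise

theorem not_three_dvd_M12 {K : Subgroup (Equiv.Perm GolayPt)} (hK : K = stabK [dodMask])
    {Γ : Type} [Group Γ] [Finite Γ] {σ : Γ →* K} (hσ : Cfsg.IsStemExtension σ) :
    ¬ 3 ∣ Nat.card σ.ker := by
  obtain ⟨gs, hgs⟩ := exists_elts [dodMask] hK [818612210485212590184704983541288972, 305987656564250933130828713865365920, 217604548661908463795021097940824489, 936851130435515410662040894090678368, 486315550835951220564643278585594886] (by decide +kernel)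
  rcases hgs with _ | ⟨hx, _ | ⟨hy, _ | ⟨hz, _ | ⟨hg, _ | ⟨hh, ⟨⟩⟩⟩⟩⟩⟩
  rename_i x y z g h
  have h5 : List.Forall₂ (fun (g : K) t => IsTbl (g : Equiv.Perm GolayPt) t) [x, y, z, g, h]
      [818612210485212590184704983541288972, 305987656564250933130828713865365920, 217604548661908463795021097940824489, 936851130435515410662040894090678368, 486315550835951220564643278585594886] := .cons hx (.cons hy (.cons hz (.cons hg (.cons hh .nil))))
  have hcard := card_closure_pair hx hy (words := [[], [0], [1], [0, 0], [0, 1], [1, 0], [1, 1], [0, 0, 1], [0, 1, 0], [0, 1, 1], [1, 0, 0], [1, 0, 1], [1, 1, 0], [0, 0, 1, 0], [0, 0, 1, 1], [0, 1, 0, 0], [0, 1, 0, 1], [0, 1, 1, 0], [1, 0, 1, 1], [1, 1, 0, 1], [0, 0, 1, 0, 0], [0, 0, 1, 0, 1], [0, 0, 1, 1, 0], [0, 1, 0, 1, 1], [0, 1, 1, 0, 1], [0, 0, 1, 0, 1, 1], [0, 0, 1, 1, 0, 1]]) (by decide +kernel)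
  refine not_three_dvd_of_extraspecial hσ (x := x) (y := y) (z := z) (g := g) (h := h)
    (a := 0) (b := 1) (c := 1) (d := 2) (a' := 0) (b' := 1) (c' := 1) (d' := 1)
    (by
      rw [mul_inv_eq_iff_eq_mul, mul_inv_eq_iff_eq_mul]
      exact (show x * y = z * y * x by
    simpa [evalGroup, pow_succ, mul_assoc] using
      eq_of_word h5 (w := [0, 1]) (w' := [2, 1, 0]) (by decide +kernel)))
    (show x ^ 3 = 1 by
    simpa [evalGroup, pow_succ, mul_assoc] using
      eq_of_word h5 (w := [0, 0, 0]) (w' := []) (by decide +kernel))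
    (show y ^ 3 = 1 by
    simpa [evalGroup, pow_succ, mul_assoc] using
      eq_of_word h5 (w := [1, 1, 1]) (w' := []) (by decide +kernel))
    (by simpa [evalGroup] using ne_of_word h5 (w := [2]) (w' := []) (by decide +kernel))
    (show x * z = z * x by
    simpa [evalGroup, pow_succ, mul_assoc] using
      eq_of_word h5 (w := [0, 2]) (w' := [2, 0]) (by decide +kernel))
    (show y * z = z * y by
    simpa [evalGroup, pow_succ, mul_assoc] using
      eq_of_word h5 (w := [1, 2]) (w' := [2, 1]) (by decide +kernel))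
    (by rw [mul_inv_eq_iff_eq_mul]; exact (show g * x = x ^ 0 * z ^ 1 * g by
    simpa [evalGroup, pow_succ, mul_assoc] using
      eq_of_word h5 (w := [3, 0]) (w' := [2, 3]) (by decide +kernel)))
    (by rw [mul_inv_eq_iff_eq_mul]; exact (show g * z = x ^ 1 * z ^ 2 * g by
    simpa [evalGroup, pow_succ, mul_assoc] using
      eq_of_word h5 (w := [3, 2]) (w' := [0, 2, 2, 3]) (by decide +kernel)))
    (by norm_num)
    (by rw [mul_inv_eq_iff_eq_mul]; exact (show h * y = y ^ 0 * z ^ 1 * h by
    simpa [evalGroup, pow_succ, mul_assoc] using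
      eq_of_word h5 (w := [4, 1]) (w' := [2, 4]) (by decide +kernel)))
    (by rw [mul_inv_eq_iff_eq_mul]; exact (show h * z = y ^ 1 * z ^ 1 * h by
    simpa [evalGroup, pow_succ, mul_assoc] using
      eq_of_word h5 (w := [4, 2]) (w' := [1, 2, 4]) (by decide +kernel)))
    (by norm_num) ?_
  rw [index_eq_of_card (k := 3520) hcard (hK ▸ card_stabK_dodecad) (by rfl)]
  norm_num

end CfsgLib.OutMathieu
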