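import Cfsg.Agent.Lib.OutMathieu.Rigid
import Cfsg.Agent.Lib.SchurMult.SmallSylow

/-!
Orders and relations of small subgroups of `M24` from tables.
-/

set_option autoImplicit false

namespace CfsgLib.OutMathieu

open Cfsg CfsgLib.Golay
open scoped Pointwise

variable {K : Subgroup (Equiv.Perm GolayPt)}

attribute [local irreducible] mkTbl

theorem evalWord_unique {g : Equiv.Perm GolayPt} {imgs w w' : List ℕ}
    (hg : IsTbl g (evalWord imgs w)) (hh : IsTbl g (evalWord imgs w')) :
    evalWord imgs w = evalWord imgs w' := by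
  have key : ∀ w, ∃ f : ℕ → ℕ, evalWord imgs w = mkTbl 24 f ∧ ∀ j < 24, f j < 32 := by
    intro w
    cases w with
    | nil => exact ⟨id, rfl, fun j hj => show j < 32 by omega⟩
    | cons i w => exact ⟨_, rfl, fun j _ => tblAt_lt _ _⟩
  obtain ⟨f, hf, hf'⟩ := key w
  obtain ⟨f', h2, h2'⟩ := key w'
  rw [hf] at hg ⊢
  rw [h2] at hh ⊢
  refine mkTbl_congr 24 fun i hi => ?_
  have e1 := hg (pt i)
  have e2 := hh (pt i)
  rw [idx_pt hi, tblAt_mkTbl 24 f hi hf'] at e1
  rw [idx_pt hi, tblAt_mkTbl 24 f' hi h2'] at e2
  rw [← e1, ← e2]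

/-- Two words with the same table give the same element. -/
theorem eq_of_word {gs : List K} {imgs : List ℕ}
    (h : List.Forall₂ (fun (g : K) t => IsTbl (g : Equiv.Perm GolayPt) t) gs imgs) {w w' : List ℕ}
    (he : evalWord imgs w = evalWord imgs w') : evalGroup gs w = evalGroup gs w' := by
  have h1 := isTbl_evalWord h w
  rw [he] at h1
  exact Subtype.ext (h1.ext (isTbl_evalWord h w'))

/-- Two words with different tables give different elements. -/
theorem ne_of_word {gs : List K} {imgs : List ℕ}
    (h : List.Forall₂ (fun (g : K) t => IsTbl (g : Equiv.Perm GolayPt) t) gs imgs) {w w' : List ℕ}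
    (he : evalWord imgs w ≠ evalWord imgs w') : evalGroup gs w ≠ evalGroup gs w' := fun e => by
  have h1 := isTbl_evalWord h w
  rw [e] at h1
  exact he (evalWord_unique h1 (isTbl_evalWord h w'))

/-- The listed words form the group generated by two elements. -/
def closedOK (imgs : List ℕ) (words : List (List ℕ)) : Bool :=
  let T := words.map (evalWord imgs)
  T.contains idTbl && decide T.Nodup &&
    words.all (fun w => w.all fun i => i == 0 || i == 1) &&
    words.all fun w => [0, 1].all fun i => T.contains (evalWord imgs (w ++ [i]))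

theorem evalGroup_append {G : Type*} [Group G] (gs : List G) : ∀ u w : List ℕ,
    evalGroup gs (u ++ w) = evalGroup gs u * evalGroup gs w
  | [], w => (one_mul _).symm
  | i :: u, w => by simp [evalGroup, evalGroup_append gs u w, mul_assoc]

theorem card_closure_pair {x y : K} {tx ty : ℕ} (hx : IsTbl (x : Equiv.Perm GolayPt) tx)
    (hy : IsTbl (y : Equiv.Perm GolayPt) ty) {words : List (List ℕ)}
    (hok : closedOK [tx, ty] words = true) :
    Nat.card (Subgroup.closure {x, y}) = words.length := by
  simp only [closedOK, Bool.and_eq_true, List.contains_iff_mem, decide_eq_true_eq, List.all_eq_true,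
    Bool.or_eq_true, beq_iff_eq] at hok
  obtain ⟨⟨⟨hone, hnd⟩, hlet⟩, hclosed⟩ := hok
  have hg : List.Forall₂ (fun (g : K) t => IsTbl (g : Equiv.Perm GolayPt) t) [x, y] [tx, ty] :=
    .cons hx (.cons hy .nil)
  set H := Subgroup.closure ({x, y} : Set K)
  have hmem : ∀ w : List ℕ, (∀ i ∈ w, i = 0 ∨ i = 1) → evalGroup [x, y] w ∈ H := by
    intro w
    induction w with
    | nil => intro _; exact one_mem H
    | cons i w ih =>
      intro hw
      refine mul_mem ?_ (ih fun j hj => hw j (List.mem_cons_of_mem _ hj))
      rcases hw i (List.mem_cons_self ..) with rfl | rfl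
      · exact Subgroup.subset_closure (Or.inl rfl)
      · exact Subgroup.subset_closure (Or.inr rfl)
  let F : Fin words.length → H := fun k => ⟨evalGroup [x, y] words[k.1],
    hmem _ (hlet _ (List.getElem_mem k.2))⟩
  have hinj : Function.Injective F := by
    intro i j hij
    have e := congrArg Subtype.val hij
    have h1 := isTbl_evalWord hg words[i.1]
    rw [show evalGroup [x, y] words[i.1] = evalGroup [x, y] words[j.1] from e] at h1
    have := evalWord_unique h1 (isTbl_evalWord hg words[j.1])
    apply Fin.ext
    have hi : i.1 < (words.map (evalWord [tx, ty])).length := by simp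
    have hj : j.1 < (words.map (evalWord [tx, ty])).length := by simp
    exact (hnd.getElem_inj_iff (hi := hi) (hj := hj)).1 (by simpa using this)
  have hreach : ∀ w : List ℕ, evalWord [tx, ty] w ∈ words.map (evalWord [tx, ty]) →
      ∃ k : Fin words.length, evalGroup [x, y] w = evalGroup [x, y] words[k.1] := by
    intro w hw
    obtain ⟨u, hu, he⟩ := List.mem_map.1 hw
    obtain ⟨k, hk, rfl⟩ := List.getElem_of_mem hu
    exact ⟨⟨k, hk⟩, eq_of_word hg he.symm⟩
  have hsurj : Function.Surjective F := by
    rintro ⟨z, hz⟩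
    suffices ∃ k : Fin words.length, z = evalGroup [x, y] words[k.1] by
      obtain ⟨k, hk⟩ := this
      exact ⟨k, Subtype.ext hk.symm⟩
    clear F hinj
    rw [← Subgroup.mem_toSubmonoid, Subgroup.closure_toSubmonoid_of_finite] at hz
    induction hz using Submonoid.closure_induction_right with
    | one => exact hreach [] hone
    | mul_right u _ g hgS ih =>
      obtain ⟨k, rfl⟩ := ih
      obtain ⟨i, hi, rfl⟩ : ∃ i ∈ ([0, 1] : List ℕ), g = evalGroup [x, y] [i] := by
        rcases hgS with rfl | rfl
        · exact ⟨0, by simp, by simp [evalGroup]⟩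
        · exact ⟨1, by simp, by simp [evalGroup]⟩
      rw [← evalGroup_append]
      exact hreach _ (hclosed _ (List.getElem_mem k.2) i hi)
  simpa using (Nat.card_eq_of_bijective F ⟨hinj, hsurj⟩).symm

/-- The index of a subgroup of known order. -/
theorem index_eq_of_card {H : Subgroup K} {m n k : ℕ} (hH : Nat.card H = m) (hK : Nat.card K = n)
    (h : n = m * k) : H.index = k := by
  have hm : 0 < m := hH ▸ Nat.card_pos
  have := H.card_mul_index
  rw [hH, hK, h] at this
  exact Nat.eq_of_mul_eq_mul_left hm this

theorem exists_elts (sets : List ℕ) (hK : K = stabK sets) (tbls : List ℕ)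
    (h : (tbls.all fun t => inM24 t && sets.all fun s => imgMask t s == s) = true) :
    ∃ gs : List K, List.Forall₂ (fun (g : K) t => IsTbl (g : Equiv.Perm GolayPt) t) gs tbls := by
  simp only [List.all_eq_true, Bool.and_eq_true, beq_iff_eq] at h
  refine Cert.forall₂_of_mem fun t ht => ?_
  obtain ⟨h1, h2⟩ := h t ht
  obtain ⟨g, hg⟩ := exists_isTbl (t := t) (by
    simp only [inM24, Bool.and_eq_true] at h1; exact h1.1)
  exact ⟨⟨g, hK ▸ mem_stabK_of_isTbl hg h1 h2⟩, hg⟩

end CfsgLib.OutMathieu
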