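import Cfsg.Agent.Lib.OutMathieu.MultTwo
import Cfsg.Agent.Lib.SchurMult.TwoCollectOne

/-!
Checker of a collector certificate with one degree of freedom for subgroups of `M24`.
-/

set_option autoImplicit false

namespace CfsgLib.OutMathieu

open Cfsg CfsgLib.Golay CfsgLib.SchurMult
open scoped Pointwise

variable {K : Subgroup (Equiv.Perm GolayPt)}

/-- A certificate bounds the `2`-part of the kernels of stem extensions of `K` by a group of
order `2`. -/
theorem TwoCert.two_elements (c : TwoCert) (hK : K = stabK c.sets)
    (hmem : c.memOK = true) (hrel : c.relOK = true) (hconj : c.conjOK = true)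
    (horder : c.orderOK = true) (hT : c.col.tableOK = true) {x y : ℕ} {extra : List Bool}
    (hpair : (decide (x < 2 ^ c.col.n) && decide (y < 2 ^ c.col.n) &&
      (c.col.mulNF x y).1 == (c.col.mulNF y x).1 && (c.col.mulNF x x).1 == 0 &&
      c.col.solvedOneOK (pairComm c.col x y) extra) = true)
    (hG : ∃ m, ¬ 2 ∣ m ∧ Nat.card K = 2 ^ c.col.n * m)
    {Γ : Type} [Group Γ] [Finite Γ] {σ : Γ →* K} (hσ : Cfsg.IsStemExtension σ) :
    ∃ w : Γ, w ^ 2 = 1 ∧ ∀ z ∈ σ.ker, ∀ k : ℕ, z ^ 2 ^ k = 1 → z ∈ Subgroup.zpowers w := by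
  simp only [memOK, Bool.and_eq_true, List.all_eq_true, beq_iff_eq, List.mem_append] at hmem
  obtain ⟨el, hel⟩ := exists_family c.sets hK c.gens fun t ht => hmem t (Or.inl ht)
  obtain ⟨ce, hce⟩ := exists_family c.sets hK c.conjs fun t ht => hmem t (Or.inr ht)
  simp only [relOK, List.all_eq_true, beq_iff_eq] at hrel
  simp only [conjOK, List.all_eq_true] at hconj
  simp only [Bool.and_eq_true, decide_eq_true_eq, beq_iff_eq] at hpair
  obtain ⟨⟨⟨⟨hx, hy⟩, hxy⟩, hxx⟩, hsolved⟩ := hpair
  refine two_elements_le_zpowers c.col el ce hT hx hy hxy hxx hsolved (fun v hv => ?_)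
    (fun e he => ?_) ?_ hG hσ
  · rw [List.getD_eq_getElem _ _ hv]
    apply Subtype.ext
    have h1 := isTbl_lprod hel c.col.rels[v].1
    rw [hrel _ (List.getElem_mem hv)] at h1
    exact h1.ext (isTbl_lprod hel _)
  · have := hconj e he
    cases e with
    | assoc pre v => trivial
    | conj k m pairs =>
      simp only [List.all_eq_true, beq_iff_eq] at this
      intro q hq
      rw [mul_inv_eq_iff_eq_mul]
      apply Subtype.ext
      have h1 := isTbl_compTbl (hce k) (isTbl_nfTbl hel c.col.n q.1)
      rw [this q hq] at h1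
      rw [Subgroup.coe_mul, Subgroup.coe_mul]
      exact h1.ext (isTbl_compTbl (isTbl_nfTbl hel c.col.n q.2) (hce k))
  · simp only [orderOK, Bool.and_eq_true, beq_iff_eq] at horder
    have hp := pairwise_of_increasing horder.2
    set H : Subgroup K := Subgroup.closure (el '' Set.Iio c.col.n)
    have hmemH : ∀ k, k ≤ c.col.n → ∀ x, bprod el k x ∈ H := by
      intro k
      induction k with
      | zero => intro _ _; exact one_mem H
      | succ k ih =>
        intro hk x
        rw [bprod]
        cases x.testBit k
        · exact ih (by omega) x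
        · exact mul_mem (ih (by omega) x)
            (Subgroup.subset_closure ⟨k, Set.mem_Iio.2 (by omega), rfl⟩)
    have hinj : Function.Injective fun i : Fin c.order.length =>
        (⟨bprod el c.col.n c.order[i.1], hmemH _ le_rfl _⟩ : H) := by
      intro i j hij
      have hij' := congrArg (fun z : H => (z : K)) hij
      simp only at hij'
      by_contra hne
      have heq : nfTbl c.gens c.col.n c.order[i.1] = nfTbl c.gens c.col.n c.order[j.1] :=
        nfTbl_eq (congrArg Subtype.val hij') (isTbl_nfTbl hel _ _) (isTbl_nfTbl hel _ _)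
      rcases lt_trichotomy i.1 j.1 with h | h | h
      · exact (List.pairwise_iff_getElem.1 hp i j i.2 j.2 h).ne heq
      · exact hne (Fin.ext h)
      · exact (List.pairwise_iff_getElem.1 hp j i j.2 i.2 h).ne heq.symm
    have := Nat.card_le_card_of_injective _ hinj
    simpa [horder.1] using this

end CfsgLib.OutMathieu
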